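import Cfsg.Agent.Lib.FixSpace.Homogeneous

/-! Fixed-point spaces in primitive solvable linear groups. -/

set_option autoImplicit false
set_option linter.unusedSectionVars false
set_option linter.style.longLine false

open scoped commutatorElement

namespace Cfsg.Agent.Lib.FixSpace

section Group

variable {Γ : Type*} [Group Γ] [Finite Γ]

/-- A finite solvable group has a self-centralising normal subgroup of class at most two. -/
theorem exists_classTwo (hsol : Group.IsSolvable Γ) :
    ∃ B : Subgroup Γ, B.Normal ∧ Subgroup.centralizer (B : Set Γ) ≤ B ∧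
      ∀ x ∈ B, ∀ y ∈ B, ∀ z ∈ B, ⁅x, y⁆ * z = z * ⁅x, y⁆ := by
  obtain ⟨A, ⟨hAn, hAc⟩, hAmax⟩ := Set.Finite.exists_maximal
    (s := {A : Subgroup Γ | A.Normal ∧ ∀ x ∈ A, ∀ y ∈ A, x * y = y * x}) (Set.toFinite _)
    ⟨⊥, Subgroup.normal_bot, by simp⟩
  haveI := hAn
  obtain ⟨B, ⟨hBn, hAB, hBC, hBA⟩, hBmax⟩ := Set.Finite.exists_maximal
    (s := {B : Subgroup Γ | B.Normal ∧ A ≤ B ∧ B ≤ Subgroup.centralizer (A : Set Γ) ∧ ⁅B, B⁆ ≤ A})
    (Set.toFinite _) ⟨A, hAn, le_rfl, fun x hx y hy => hAc y hy x hx,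
      Subgroup.commutator_le_right A A⟩
  haveI := hBn
  set E := Subgroup.centralizer (B : Set Γ) with hEdef
  have hEC : E ≤ Subgroup.centralizer (A : Set Γ) := Subgroup.centralizer_le hAB
  have hEB : E ⊓ B ≤ A := by
    have h1 : A ≤ E ⊓ B := le_inf (fun x hx y hy => (hBC hy x hx).symm) hAB
    refine hAmax ⟨inferInstance, fun x hx y hy => ?_⟩ h1
    exact (hx.1 y hy.2).symm
  refine ⟨B, hBn, ?_, fun x hx y hy z hz => ?_⟩
  · refine le_trans ?_ hAB
    by_contra hEA
    let d : ℕ → Subgroup Γ := fun k => derivedSeries ↥E k |>.map E.subtype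
    have hd0 : d 0 = E := by
      show ((⊤ : Subgroup E)).map E.subtype = E
      rw [← MonoidHom.range_eq_map, Subgroup.range_subtype]
    have hdsucc : ∀ k, d (k + 1) = ⁅d k, d k⁆ := fun k => by
      show (⁅derivedSeries ↥E k, derivedSeries ↥E k⁆).map E.subtype = _
      exact Subgroup.map_commutator _ _ _
    have hdn : ∀ k, (d k).Normal := by
      intro k
      induction k with
      | zero => rw [hd0]; infer_instance
      | succ k ih => rw [hdsucc]; exact @Subgroup.commutator_normal _ _ (d k) (d k) ih ih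
    have hdle : ∀ k, d k ≤ derivedSeries Γ k := by
      intro k
      induction k with
      | zero => exact le_top
      | succ k ih => rw [hdsucc]; exact Subgroup.commutator_mono ih ih
    obtain ⟨n, hn⟩ := hsol.solvable
    obtain ⟨k, hk, hk'⟩ : ∃ k, ¬ d k ≤ A ∧ d (k + 1) ≤ A := by
      by_contra h
      push Not at h
      have : ∀ k, ¬ d k ≤ A := fun k => by
        induction k with
        | zero => rw [hd0]; exact hEA
        | succ k ih => exact h k ih
      exact this n ((hdle n).trans (hn ▸ bot_le))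
    haveI := hdn k
    have hdE : d k ≤ E := Subgroup.map_subtype_le _
    have hmax : B ⊔ d k ≤ B := hBmax ⟨Subgroup.sup_normal B (d k), hAB.trans le_sup_left,
      sup_le hBC (hdE.trans hEC), ?_⟩ le_sup_left
    · exact hk ((le_inf hdE (le_sup_right.trans hmax)).trans hEB)
    · have e : ⁅(B ⊔ d k).map (QuotientGroup.mk' A), (B ⊔ d k).map (QuotientGroup.mk' A)⁆ = ⊥ := by
        have h11 : ⁅B.map (QuotientGroup.mk' A), B.map (QuotientGroup.mk' A)⁆ = ⊥ := by
          rw [← Subgroup.map_commutator, Subgroup.map_eq_bot_iff, QuotientGroup.ker_mk']; exact hBA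
        have h22 : ⁅(d k).map (QuotientGroup.mk' A), (d k).map (QuotientGroup.mk' A)⁆ = ⊥ := by
          rw [← Subgroup.map_commutator, Subgroup.map_eq_bot_iff, QuotientGroup.ker_mk', ← hdsucc]; exact hk'
        have h12 : ⁅B.map (QuotientGroup.mk' A), (d k).map (QuotientGroup.mk' A)⁆ = ⊥ := by
          rw [← Subgroup.map_commutator, Subgroup.map_eq_bot_iff, QuotientGroup.ker_mk',
            Subgroup.commutator_le]
          intro x hx y hy
          rw [commutatorElement_eq_one_iff_mul_comm.mpr (hdE hy x hx)]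
          exact A.one_mem
        have h21 := (Subgroup.commutator_comm ((d k).map (QuotientGroup.mk' A)) _).trans h12
        rw [Subgroup.commutator_eq_bot_iff_le_centralizer] at h11 h22 h12 h21 ⊢
        rw [Subgroup.map_sup]
        refine sup_le ?_ ?_
        · exact Subgroup.le_centralizer_iff.mp (sup_le (Subgroup.le_centralizer_iff.mp h11)
            (Subgroup.le_centralizer_iff.mp h12))
        · exact Subgroup.le_centralizer_iff.mp (sup_le (Subgroup.le_centralizer_iff.mp h21)
            (Subgroup.le_centralizer_iff.mp h22))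
      rw [← Subgroup.map_commutator, Subgroup.map_eq_bot_iff, QuotientGroup.ker_mk'] at e
      exact e
  · exact (hBC hz _ (hBA (Subgroup.commutator_mem_commutator hx hy)))

end Group

variable {F V Γ : Type*} [Field F] [AddCommGroup V] [Module F V] [Group Γ] [Finite Γ] [Finite F]
  [FiniteDimensional F V]

/-- The dimension of the fixed-point space. -/
noncomputable def fixDim (ρ : Γ →* Module.End F V) (g : Γ) : ℕ :=
  Module.finrank F (LinearMap.ker (ρ g - 1))

variable {ρ : Γ →* Module.End F V}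

theorem two_mul_le_commutator (g f : Γ) :
    2 * fixDim ρ g ≤ fixDim ρ ⁅g, f⁆ + Module.finrank F V := by
  set U := LinearMap.ker (ρ g - 1) with hU
  set U' := U.map (ρ f) with hU'
  have hinj : Function.Injective (ρ f) := fun x y h => by
    simpa only [inv_apply] using congrArg (ρ f⁻¹) h
  have h1 : Module.finrank F U' = fixDim ρ g :=
    (Submodule.equivMapOfInjective (ρ f) hinj U).finrank_eq.symm
  have h2 : U ⊓ U' ≤ LinearMap.ker (ρ ⁅g, f⁆ - 1) := by
    rintro x ⟨hx, ⟨u, hu, rfl⟩⟩
    simp only [hU, SetLike.mem_coe, LinearMap.mem_ker, LinearMap.sub_apply, Module.End.one_apply,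
      sub_eq_zero] at hx hu ⊢
    have hu' : ρ g⁻¹ u = u := by conv_lhs => rw [← hu]; rw [inv_apply]
    rw [commutatorElement_def, map_mul, map_mul, map_mul, Module.End.mul_apply,
      Module.End.mul_apply, Module.End.mul_apply, inv_apply, hu', hx]
  have h3 := Submodule.finrank_sup_add_finrank_inf_eq U U'
  have h4 := Submodule.finrank_le (U ⊔ U')
  have h5 : Module.finrank F ↥(U ⊓ U') ≤ fixDim ρ ⁅g, f⁆ := Submodule.finrank_mono h2
  have h0 : Module.finrank F U = fixDim ρ g := rfl
  omega

theorem fixDim_eq_zero {g : Γ} (h : ∀ v, ρ g v = v → v = 0) : fixDim ρ g = 0 := by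
  have : LinearMap.ker (ρ g - 1) = ⊥ := by
    rw [eq_bot_iff]
    intro v hv
    rw [LinearMap.mem_ker, LinearMap.sub_apply, Module.End.one_apply, sub_eq_zero] at hv
    exact (Submodule.mem_bot F).mpr (h v hv)
  rw [fixDim, this, finrank_bot]

/-- The bound `3n/4`. -/
theorem four_mul_fixDim_le (hsol : Group.IsSolvable Γ) (hirr : Irred ρ) (hprim : Primitive ρ)
    (hinj : Function.Injective ρ) {g : Γ} (hg : g ≠ 1) :
    4 * fixDim ρ g ≤ 3 * Module.finrank F V := by
  obtain ⟨B, hBn, hC, hB2⟩ := exists_classTwo hsol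
  let Z : Subgroup Γ := B ⊓ Subgroup.centralizer (B : Set Γ)
  haveI : Z.Normal := inferInstance
  have hzero : ∀ z ∈ Z, z ≠ 1 → fixDim ρ z = 0 := fun z hz hz1 => fixDim_eq_zero fun v hv =>
    eq_zero_of_fixed hirr hprim hinj Z (fun x hx y hy => (hx.2 y hy.1).symm) hz hz1 hv
  have hcomm : ∀ x ∈ B, ∀ y ∈ B, ⁅x, y⁆ ∈ Z := fun x hx y hy =>
    ⟨B.mul_mem (B.mul_mem (B.mul_mem hx hy) (B.inv_mem hx)) (B.inv_mem hy),
      fun z hz => (hB2 x hx y hy z hz).symm⟩
  have hhalf : ∀ b ∈ B, b ≠ 1 → 2 * fixDim ρ b ≤ Module.finrank F V := by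
    intro b hb hb1
    by_cases hbZ : b ∈ Subgroup.centralizer (B : Set Γ)
    · rw [hzero b ⟨hb, hbZ⟩ hb1]; simp
    · simp only [Subgroup.mem_centralizer_iff, not_forall] at hbZ
      obtain ⟨f, hf, hne⟩ := hbZ
      have h := two_mul_le_commutator (ρ := ρ) b f
      rwa [hzero _ (hcomm b hb f hf) (fun e => hne (commutatorElement_eq_one_iff_mul_comm.mp e).symm),
        zero_add] at h
  by_cases hgB : g ∈ B
  · have := hhalf g hgB hg
    omega
  · have : g ∉ Subgroup.centralizer (B : Set Γ) := fun h => hgB (hC h)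
    simp only [Subgroup.mem_centralizer_iff, not_forall] at this
    obtain ⟨f, hf, hne⟩ := this
    have h := two_mul_le_commutator (ρ := ρ) g f
    have hc : ⁅g, f⁆ ∈ B := by
      rw [commutatorElement_def]
      exact B.mul_mem (hBn.conj_mem f hf g) (B.inv_mem hf)
    have := hhalf _ hc (fun e => hne (commutatorElement_eq_one_iff_mul_comm.mp e).symm)
    omega

end Cfsg.Agent.Lib.FixSpace
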